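import Cfsg.Agent.Block.Brauer

set_option autoImplicit false

namespace CF.PReg
open Cfsg CF.Block CF.Char
open CF.BlockB (v O k resC nrm eSet PV InSpan)
open scoped ComplexConjugate

variable {G : Type*} [Group G] [Fintype G]

theorem sum_eq_one {ι : Type*} [Fintype ι] [DecidableEq ι] (n t : ι → ℕ)
    (h : ∑ i, (n i + 1) * t i = 1) : ∃ i0, t i0 = 1 ∧ ∀ i, i ≠ i0 → t i = 0 := by
  obtain ⟨i0, -, hi⟩ := Finset.exists_ne_zero_of_sum_ne_zero (s := Finset.univ)
    (f := fun i => (n i + 1) * t i) (by rw [h]; exact one_ne_zero)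
  rw [← Finset.add_sum_erase _ _ (Finset.mem_univ i0)] at h
  have h1 : (n i0 + 1) * t i0 = 1 := by omega
  have h2 : ∑ i ∈ Finset.univ.erase i0, (n i + 1) * t i = 0 := by omega
  refine ⟨i0, Nat.eq_one_of_mul_eq_one_left h1, fun i hi' => ?_⟩
  have := Finset.sum_eq_zero_iff.1 h2 i (Finset.mem_erase.2 ⟨hi', Finset.mem_univ _⟩)
  simpa using this

/-- The projective character of the trivial module. -/
theorem exists_proj {p : ℕ} (hp : p.Prime) : ∃ Φ : G → ℂ, IsCharacter G Φ ∧ PV p Φ ∧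
    classInner Φ (fun _ => 1) = 1 ∧ ∀ Q : Subgroup G, ¬ p ∣ Nat.card Q → ∀ χ : IrrCharacter G,
      ∃ n m : ℕ, classInner Φ χ = n ∧ classInner (indFun Q fun _ => 1) χ = (n + m : ℕ) := by
  classical
  obtain ⟨M, hM⟩ := BlockB.exists_isPModular hp
  have hB : nrm M (eSet (Set.univ : Set (IrrCharacter G))) ≤ 1 := by
    rw [BlockB.eSet_univ]; exact BlockB.nrm_one.le
  obtain ⟨j, φ, h⟩ := exists_iBr hM hB
  have hcl : ∀ i, IsClassFunction G (φ i) := fun i => (h.inSpan hM hB i).classFun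
  have hexp : ∀ x : MonoidAlgebra (k M) G, x * x = x → ∃ c : _ → ℕ, (∀ i, tau M (φ i) 1 x = c i) ∧
      ∀ χ : IrrCharacter G, tau M (χ : G → ℂ) 1 x = ∑ i, c i * tau M (χ : G → ℂ) 1 (j i) := by
    intro x hx
    choose c hc using fun i => h.exists_nat hM hB i hx
    refine ⟨c, hc, fun χ => ?_⟩
    have h1 := h.bset.eq_sum' hM hB (θ := pch M x)
      (BlockB.inSpan_iff.2 ⟨pch_classFun x, fun ξ hξ => absurd (Set.mem_univ ξ) hξ⟩) (pv_pch hM hx)
    rw [← inner_pch_irr, h1, inner_sum_left]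
    refine Finset.sum_congr rfl fun i _ => ?_
    rw [Char.inner_smul_left, inner_pch_irr, ← Char.inner_conj_symm, inner_pch (hcl i) hx, hc, map_natCast]
  choose t ht using fun (χ : IrrCharacter G) i => exists_nat_tau (M := M) (irr_isCharacter χ.2) (h.idem i)
  obtain ⟨c1, hc1, hc1'⟩ := hexp 1 (mul_one 1)
  choose n hn using h.exists_apply_one hM hB
  have h2 := hc1' (oneIrr G)
  rw [tau_one_one (irr_isClassFunction (oneIrr G).2)] at h2
  have h3 : ∑ i, (n i + 1) * t (oneIrr G) i = 1 := by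
    rw [← Nat.cast_inj (R := ℂ), Nat.cast_one]
    refine Eq.trans ?_ h2.symm
    push_cast
    refine Finset.sum_congr rfl fun i _ => ?_
    rw [← hc1, tau_one_one (hcl i), hn, ht]; push_cast; ring
  obtain ⟨i0, hi0, hi⟩ := sum_eq_one _ _ h3
  refine ⟨pch M (j i0), char_pch (h.idem i0), pv_pch hM (h.idem i0), ?_, fun Q hQ χ => ?_⟩
  · have := inner_pch_irr (j i0) (oneIrr G)
    rw [ht, hi0, Nat.cast_one] at this
    exact this
  obtain ⟨x, hx, hx'⟩ := exists_tau_eq_inner hM hQ Q.subtype (irr_one (G := Q))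
  obtain ⟨c, -, hc⟩ := hexp x hx
  have h4 : c i0 = 1 := by
    have h5 := hc (oneIrr G)
    rw [hx' _ (irr_isClassFunction (oneIrr G).2), Finset.sum_eq_single i0
      (fun i _ hi' => by rw [ht, hi i hi']; simp) (by simp), ht, hi0] at h5
    have h6 : classInner (fun y : Q => ((oneIrr G : IrrCharacter G) : G → ℂ) (Q.subtype y))
      (fun _ => (1 : ℂ)) = 1 := inner_one_one
    rw [h6] at h5
    exact_mod_cast (by simpa using h5.symm : (c i0 : ℂ) = 1)
  refine ⟨t χ i0, ∑ i ∈ Finset.univ.erase i0, c i * t χ i, by rw [inner_pch_irr, ht], ?_⟩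
  have h5 := hc χ
  rw [hx' _ (irr_isClassFunction χ.2), one_mul, ← Finset.add_sum_erase _ _ (Finset.mem_univ i0),
    h4] at h5
  simp only [ht] at h5
  rw [← Char.inner_conj_symm, inner_indFun_right _ _ (irr_isClassFunction χ.2)]
  have h6 : classInner (fun h : Q => (χ : G → ℂ) h) (fun _ => (1 : ℂ)) =
      ((t χ i0 + ∑ i ∈ Finset.univ.erase i0, c i * t χ i : ℕ) : ℂ) := by
    refine Eq.trans h5 ?_
    push_cast; ring
  rw [h6, map_natCast]

theorem inner_ind_ind (Q R : Subgroup G) (h : (Nat.card Q).Coprime (Nat.card R)) :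
    (Nat.card Q : ℂ) * classInner (indFun Q fun _ => 1) (indFun R fun _ => 1) = R.index := by
  classical
  rw [inner_indFun_left _ _ (indFun_isClassFunction _ _), card_mul_inner,
    Finset.sum_eq_single (1 : Q)]
  · simp [indFun_one]
  · intro g _ hg
    rw [indFun_eq_zero_of_not_conj R _ (fun x hx => hg ?_)]; · simp
    have h1 : orderOf g ∣ Nat.card Q := orderOf_dvd_natCard g
    have h2 : orderOf (x * (g : G) * x⁻¹) ∣ Nat.card R := Subgroup.orderOf_dvd_natCard R hx
    rw [← MulAut.conj_apply, MulEquiv.orderOf_eq, Subgroup.orderOf_coe] at h2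
    exact orderOf_eq_one_iff.1 (Nat.eq_one_of_dvd_coprimes h h1 h2)
  · simp

theorem main {p s : ℕ} (hp : p.Prime) (Q R : Subgroup G) (hQ : ¬ p ∣ Nat.card Q)
    (hR : ¬ p ∣ Nat.card R) (h : (Nat.card Q).Coprime (Nat.card R))
    (hG : Nat.card G = s * Nat.card Q * Nat.card R)
    (hc : Nat.card {g : G // ¬ p ∣ orderOf g} = Nat.card Q * Nat.card R) :
    ∃ N : Subgroup G, N.Normal ∧ Nat.card N = Nat.card Q * Nat.card R := by
  classical
  obtain ⟨Φ, hΦ, hpv, h1, hle⟩ := exists_proj (G := G) hp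
  have hcl := char_isClassFunction hΦ
  have hq0 : (Nat.card Q : ℂ) ≠ 0 := card_ne_zero_complex
  have hr0 : (Nat.card R : ℂ) ≠ 0 := card_ne_zero_complex
  have hs0 : s ≠ 0 := by
    rintro rfl
    have h0 := Nat.card_pos (α := G)
    rw [hG] at h0
    simp at h0
  have hs0' : (s : ℂ) ≠ 0 := by exact_mod_cast hs0
  have hI : classInner (indFun Q fun _ => 1) (indFun R fun _ => 1) = (s : ℂ) := by
    apply mul_left_cancel₀ hq0
    rw [inner_ind_ind Q R h]
    have h2 := R.index_mul_card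
    rw [hG] at h2
    rw [Nat.eq_of_mul_eq_mul_right Nat.card_pos h2]
    push_cast; ring
  choose n m hn hm using hle Q hQ
  choose n' m' hn' hm' using hle R hR
  have hnn : ∀ χ, n' χ = n χ := fun χ => by exact_mod_cast (hn' χ).symm.trans (hn χ)
  have hA : classInner Φ Φ = ((∑ χ, n χ * n χ : ℕ) : ℂ) := by
    rw [inner_eq_sum_irr hcl]; push_cast
    exact Finset.sum_congr rfl fun χ _ => by rw [hn, map_natCast]
  have hA' : ∑ χ, n χ * n χ ≤ s := by
    have h2 : (s : ℂ) = ((∑ χ, (n χ + m χ) * (n χ + m' χ) : ℕ) : ℂ) := by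
      rw [← hI, inner_eq_sum_irr (indFun_isClassFunction _ _), Nat.cast_sum]
      exact Finset.sum_congr rfl fun χ _ => by rw [hm, hm', map_natCast, hnn, Nat.cast_mul]
    rw [Nat.cast_inj.1 h2]
    exact Finset.sum_le_sum fun χ _ => Nat.mul_le_mul (Nat.le_add_right _ _) (Nat.le_add_right _ _)
  set θ : G → ℂ := fun g => if p ∣ orderOf g then 0 else s with hθ
  have hB : classInner Φ θ = s := by
    have h2 : classInner Φ θ = classInner Φ ((s : ℂ) • fun _ => 1) := by
      rw [inner_def, inner_def]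
      congr 1
      refine Finset.sum_congr rfl fun g _ => ?_
      by_cases hg : p ∣ orderOf g
      · simp [hpv g hg]
      · simp [hθ, hg]
    rw [h2, Char.inner_smul_right, h1]; simp
  have hB' : classInner θ Φ = s := by rw [← Char.inner_conj_symm, hB, map_natCast]
  have hC : classInner θ θ = s := by
    apply mul_left_cancel₀ (card_ne_zero_complex (G := G))
    rw [card_mul_inner]
    have h2 : ∀ g, θ g * conj (θ g) = if ¬ p ∣ orderOf g then (s : ℂ) * s else 0 := fun g => by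
      by_cases hg : p ∣ orderOf g <;> simp [hθ, hg]
    simp only [h2]
    rw [← Finset.sum_filter, Finset.sum_const, ← Fintype.card_subtype, ← Nat.card_eq_fintype_card,
      hc, hG, nsmul_eq_mul]
    push_cast; ring
  have hD : θ - Φ = 0 := by
    rw [← Char.inner_self_eq_zero]
    refine Complex.ext (le_antisymm ?_ (inner_self_re_nonneg _)) (Char.inner_self_im _)
    rw [Char.inner_sub_left, Char.inner_sub_right, Char.inner_sub_right, hA, hB, hB', hC]
    have h2 : ((∑ χ, n χ * n χ : ℕ) : ℝ) ≤ s := by exact_mod_cast hA'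
    simp only [Complex.sub_re, Complex.natCast_re, Complex.zero_re]
    linarith
  have hE : Φ = θ := (sub_eq_zero.1 hD).symm
  refine ⟨charKer Φ, charKer_normal hcl, ?_⟩
  rw [← hc]
  refine Nat.card_congr (Equiv.subtypeEquivRight fun g => ?_)
  rw [mem_charKer_iff hΦ, hE]
  have h2 : ¬ p ∣ orderOf (1 : G) := by simpa using hp.one_lt.ne'
  by_cases hg : p ∣ orderOf g
  · simp [hθ, hg, h2, hp.one_lt.ne', hs0'.symm]
  · simp [hθ, hg, hp.one_lt.ne']

end CF.PReg
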